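import Mathlib
import Cfsg.Agent.Lib.Helper93.M11U.Defs
import Cfsg.Agent.Lib.Helper91.M11Inv
import Cfsg.Agent.Lib.Helper64.Order60
import Cfsg.Agent.S0494

set_option autoImplicit false

/-!
# S0420, package [X0]

The two-point stabilizer `X0 = K ∩ uKu⁻¹` is isomorphic to `A₅`, contains `f` and `u²`, and
is normalized by `u`.
-/

namespace Cfsg.Agent.Lib.Helper96.M11U

universe u

open Cfsg.Agent.Lib.Helper93.M11U

theorem mem_conjSub_iff {G : Type u} [Group G] (g : G) (K : Subgroup G) (x : G) :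
    x ∈ conjSub g K ↔ g⁻¹ * x * g ∈ K := by
  unfold conjSub
  rw [Subgroup.mem_map]
  constructor
  · rintro ⟨k, hk, rfl⟩
    have : g⁻¹ * ((MulAut.conj g).toMonoidHom k) * g = k := by
      simp [MulAut.conj_apply, mul_assoc]
    rw [this]
    exact hk
  · intro h
    exact ⟨g⁻¹ * x * g, h, by simp [MulAut.conj_apply, mul_assoc]⟩

/-- **[X0]** -/
theorem pkgX0 : PkgX0.{u} := by
  intro G _ _ T hsimple hG C
  have h60 : Nat.card ↥(X0 C) = 60 := C.two C.u C.huK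
  have hf5 : Fact (Nat.Prime 5) := ⟨by norm_num⟩
  -- `f ∈ X0`
  have hfX : C.f ∈ X0 C := by
    refine Subgroup.mem_inf.mpr ⟨C.hfK, ?_⟩
    rw [mem_conjSub_iff]
    have hz : Subgroup.zpowers (C.u * C.f * C.u⁻¹) = Subgroup.zpowers C.f := by
      apply Subgroup.eq_of_le_of_card_ge ((Subgroup.zpowers_le).2 C.hun)
      rw [Nat.card_zpowers, Nat.card_zpowers]
      have : orderOf (C.u * C.f * C.u⁻¹) = orderOf C.f := (MulAut.conj C.u).orderOf_eq C.f
      rw [this]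
    obtain ⟨k, hk⟩ := Subgroup.mem_zpowers_iff.1 (hz ▸ Subgroup.mem_zpowers C.f)
    have e : C.u⁻¹ * C.f * C.u = C.f ^ k := by
      have h' : C.f = C.u * C.f ^ k * C.u⁻¹ := by rw [← conj_zpow]; exact hk.symm
      calc C.u⁻¹ * C.f * C.u = C.u⁻¹ * (C.u * C.f ^ k * C.u⁻¹) * C.u := by rw [← h']
        _ = C.f ^ k := by group
    rw [e]
    exact Subgroup.zpow_mem _ C.hfK k
  -- `u² ∈ X0`
  have huuX : C.u * C.u ∈ X0 C := by
    refine Subgroup.mem_inf.mpr ⟨C.htK, ?_⟩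
    rw [mem_conjSub_iff]
    have : C.u⁻¹ * (C.u * C.u) * C.u = C.u * C.u := by group
    rw [this]
    exact C.htK
  -- `u` normalizes `X0`
  have hnorm : ∀ x ∈ X0 C, C.u * x * C.u⁻¹ ∈ X0 C := by
    intro x hx
    obtain ⟨hx1, hx2⟩ := Subgroup.mem_inf.mp hx
    rw [mem_conjSub_iff] at hx2
    refine Subgroup.mem_inf.mpr ⟨?_, ?_⟩
    · have : C.u * x * C.u⁻¹ = (C.u * C.u) * (C.u⁻¹ * x * C.u) * (C.u * C.u)⁻¹ := by group
      rw [this]
      exact Subgroup.mul_mem _ (Subgroup.mul_mem _ C.htK hx2) (Subgroup.inv_mem _ C.htK)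
    · rw [mem_conjSub_iff]
      have : C.u⁻¹ * (C.u * x * C.u⁻¹) * C.u = x := by group
      rw [this]
      exact hx1
  refine ⟨?_, h60, hfX, huuX, hnorm⟩
  by_cases hsimp : IsSimpleGroup ↥(X0 C)
  · exact Cfsg.Agent.S0494.result h60
  · exfalso
    obtain ⟨P₀⟩ : Nonempty (Sylow 5 ↥(X0 C)) := inferInstance
    have hPn : (P₀ : Subgroup ↥(X0 C)).Normal :=
      Cfsg.Agent.Lib.Helper64.Order60.sylow_five_normal_of_not_simple h60 hsimp P₀
    have hP₀ : Nat.card (P₀ : Subgroup ↥(X0 C)) = 5 := by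
      have := Cfsg.Agent.S0494.sylow_card (p := 5) (k := 1) (m := 12) (by rw [h60]; norm_num) (by norm_num)
        P₀
      simpa using this
    obtain ⟨Q, hQ⟩ : ∃ Q : Subgroup G, Q = (P₀ : Subgroup ↥(X0 C)).map (X0 C).subtype := ⟨_, rfl⟩
    have hQcard : Nat.card Q = 5 := by
      rw [hQ, Subgroup.card_map_of_injective (Subgroup.subtype_injective _), hP₀]
    have hQp : IsPGroup 5 Q := IsPGroup.of_card (n := 1) (by rw [hQcard]; norm_num)
    obtain ⟨S, hS⟩ := hQp.exists_le_sylow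
    obtain ⟨hScard, hNcard, -, -⟩ := Cfsg.Agent.Lib.Helper91.M11.sylow5_full hG S
    have hQS : Q = (S : Subgroup G) :=
      Subgroup.eq_of_le_of_card_ge hS (by rw [hScard, hQcard])
    have hQle : Q ≤ X0 C := by rw [hQ]; exact Subgroup.map_subtype_le _
    have hle : X0 C ≤ Subgroup.normalizer ((S : Subgroup G) : Set G) := by
      rw [← hQS]
      refine (Subgroup.normal_subgroupOf_iff_le_normalizer hQle).mp ?_
      refine (Subgroup.normal_subgroupOf_iff hQle).mpr ?_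
      intro h k hh hk
      rw [hQ] at hh ⊢
      obtain ⟨p, hp, rfl⟩ := Subgroup.mem_map.mp hh
      exact Subgroup.mem_map.mpr ⟨⟨k, hk⟩ * p * ⟨k, hk⟩⁻¹, hPn.conj_mem p hp ⟨k, hk⟩, rfl⟩
    have hdvd := Subgroup.card_dvd_of_le hle
    rw [h60, hNcard] at hdvd
    omega

end Cfsg.Agent.Lib.Helper96.M11U
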